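import Cfsg.Agent.H545.WielandtYoshida
import Cfsg.Prelude.Def_BaumannBlocks

/-!
# Control of `p`-residuals by the normalizer of a weakly closed subgroup (Hall--Wielandt)
-/

set_option autoImplicit false

namespace Cfsg.Agent.H545.HallWielandt

open Cfsg Cfsg.Agent.H545.WielandtYoshida
open scoped commutatorElement

universe u

variable {G : Type u} [Group G] {p : ℕ}

/-- If `[u, z; p - 1] = 1` for all `u ∈ S`, `z ∈ W` then homomorphisms from `N_G(W)` to `C_p` extend. -/
theorem hom_extends [Finite G] [hp : Fact p.Prime] (S : Sylow p G) (W : Subgroup G)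
    (hW : IsWeaklyClosed W (S : Subgroup G))
    (h : ∀ u ∈ (S : Subgroup G), ∀ z ∈ W, (fun y : G => y⁻¹ * z⁻¹ * y * z)^[p - 1] u = 1)
    (f : Subgroup.normalizer (W : Set G) →* Multiplicative (ZMod p)) :
    ∃ F : G →* Multiplicative (ZMod p), ∀ h : Subgroup.normalizer (W : Set G), F h = f h := by
  by_contra hcon
  obtain ⟨u, hu, z, hz, R, -, -, -, -, -, lam, hm, hlam⟩ :=
    exists_of_hom_not_extends S W hW _ rfl f hcon
  apply hlam
  have h1 : (⟨_, hm⟩ : R) = 1 := Subtype.ext (h u hu z hz)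
  rw [h1, map_one]

/-- If every homomorphism from `H ≥ S` to `C_p` extends to `G`, then `O^p(H) = O^p(G) ∩ H`. -/
theorem residual_of_extends [Finite G] [hp : Fact p.Prime] (S : Sylow p G) (H : Subgroup G)
    (hSH : (S : Subgroup G) ≤ H)
    (hext : ∀ f : H →* Multiplicative (ZMod p),
      ∃ F : G →* Multiplicative (ZMod p), ∀ h : H, F h = f h) :
    pResidualOf p H = pResidual p G ⊓ H := by
  have hidx : ¬ p ∣ H.index := fun h => S.not_dvd_index (h.trans (Subgroup.index_dvd_of_le hSH))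
  rw [inf_comm]
  exact (Cfsg.Agent.Transfer.Tate.tate_residual H hidx hext).symm

/-- **Hall--Wielandt**. -/
theorem hall_wielandt [Finite G] [hp : Fact p.Prime] (P : Sylow p G) (Q : Subgroup G)
    (hQ : IsWeaklyClosed Q (P : Subgroup G))
    (h : ∀ u ∈ (P : Subgroup G), ∀ z ∈ Q, (fun y : G => y⁻¹ * z⁻¹ * y * z)^[p - 1] u = 1) :
    pResidualOf p (Subgroup.normalizer (Q : Set G)) =
      pResidual p G ⊓ Subgroup.normalizer (Q : Set G) :=
  residual_of_extends P _ (le_normalizer_of_weaklyClosed _ _ hQ) (hom_extends P Q hQ h)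

theorem iterate_mem_lcs (P : Subgroup G) {u z : G} (hu : u ∈ P) (hz : z ∈ P) (k : ℕ) :
    (fun y : G => y⁻¹ * z⁻¹ * y * z)^[k] u ∈ P.lowerCentralSeries k := by
  induction k with
  | zero => exact hu
  | succ k ih =>
    rw [Function.iterate_succ_apply', Subgroup.lowerCentralSeries_succ]
    set w := (fun y : G => y⁻¹ * z⁻¹ * y * z)^[k] u
    have h1 : w⁻¹ * z⁻¹ * w * z = ⁅w⁻¹, z⁻¹⁆ := by
      rw [commutatorElement_def]; group
    rw [h1]
    exact Subgroup.commutator_mem_commutator (inv_mem ih) (inv_mem hz)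

theorem weaklyClosed_self [Finite G] (P : Subgroup G) : IsWeaklyClosed P P := by
  refine ⟨le_rfl, fun g hg => ?_⟩
  refine Subgroup.eq_of_le_of_card_ge hg ?_
  exact le_of_eq (Nat.card_congr
    (P.equivMapOfInjective (MulAut.conj g).toMonoidHom (MulAut.conj g).injective).toEquiv)

end Cfsg.Agent.H545.HallWielandt
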